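import Cfsg.Agent.Lib.ChevOrder.Chain
import Cfsg.Agent.Lib.ChevOrder.TorusCard
import Cfsg.Prelude.Def_ChevB2

/-! Certificates for the order of the Chevalley group of type B2: generated tables. -/

set_option autoImplicit false
set_option linter.unusedSimpArgs false
set_option maxRecDepth 100000
set_option maxHeartbeats 4000000

namespace Cfsg.Agent.Lib.ChevOrder.Cert.B2

open Cfsg.Lie Cfsg.Agent.Lib.ChevOrder.Level Cfsg.Agent.Lib.ChevOrder.Chain
open Cfsg.Agent.Lib.ChevOrder.TorusCard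

/-- Level 0: the orbit of the coordinate functional 0. -/
def lev0 : List (List ℤ × ℕ) := [
  ([Int.ofNat 1, Int.ofNat 0], 0),
  ([Int.negSucc 0, Int.ofNat 1], 1),
  ([Int.ofNat 1, Int.negSucc 0], 2),
  ([Int.negSucc 0, Int.ofNat 0], 3)]

/-- Level 1: the orbit of the coordinate functional 1. -/
def lev1 : List (List ℤ × ℕ) := [
  ([Int.ofNat 0, Int.ofNat 1], 0),
  ([Int.ofNat 2, Int.negSucc 0], 1)]

/-- The chain of levels. -/
def chain : List (ℕ × List (List ℤ × ℕ)) := [(0, lev0), (1, lev1)]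

theorem check : checkChain chevB2 chain = true := by decide +kernel

theorem poly : chainPoly chain = degPoly [2, 4] := by decide +kernel

theorem all_mem : ∀ i < chevB2.rank, i ∈ chain.map Prod.fst := by decide +kernel

theorem posRoots_length : chevB2.posRoots.length = 4 := by decide +kernel

/-- Smith data of the Cartan matrix. -/
def mU : Matrix (Fin 2) (Fin 2) ℤ := !![-1, 0; 2, 1]

/-- Smith data of the Cartan matrix. -/
def mU' : Matrix (Fin 2) (Fin 2) ℤ := !![-1, 0; 2, 1]

/-- Smith data of the Cartan matrix. -/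
def mV : Matrix (Fin 2) (Fin 2) ℤ := !![0, 1; 1, 2]

/-- Smith data of the Cartan matrix. -/
def mV' : Matrix (Fin 2) (Fin 2) ℤ := !![-2, 1; 1, 0]

/-- The Cartan matrix. -/
def mA : Matrix (Fin 2) (Fin 2) ℤ := cartM chevB2

/-- The elementary divisors. -/
def dd : Fin 2 → ℕ := ![1, 2]

theorem hU : mU' * mU = 1 := by decide +kernel

theorem hV : mV * mV' = 1 := by decide +kernel

theorem hV' : mV' * mV = 1 := by decide +kernel

theorem hS : mU * mA * mV = Matrix.diagonal fun i => (dd i : ℤ) := by decide +kernel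

theorem prod_gcd (m : ℕ) : (∏ i, Nat.gcd m (dd i)) = Nat.gcd 2 (m) := by
  simp [dd, Fin.prod_univ_succ, Nat.gcd_comm, pow_two]

/-- The order of the diagonal subgroup. -/
theorem cardH {F : Type*} [Field F] [Finite F] {η : ℕ → ℕ → ℤ} (hT : Cfsg.Agent.Lib.ChevBN.Table.Tbl chevB2)
    (hR : Cfsg.Agent.Lib.ChevBN.Rel.Sys chevB2 F η) :
    Nat.gcd 2 (Nat.card F - 1) * Nat.card (chevB2.diagonalSubgroup F) =
      (Nat.card F - 1) ^ 2 := by
  have h := card_H_smith (D := chevB2) hT hR (U := mU) (U' := mU') (V := mV) (V' := mV') dd hU hV hV' hS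
  change (∏ i : Fin 2, (Nat.card F - 1).gcd (dd i)) * _ = _ at h
  rw [prod_gcd (Nat.card F - 1)] at h
  exact h

/-- The order of the Chevalley group. -/
theorem order {F : Type*} [Field F] [Finite F] {η : ℕ → ℕ → ℤ} (hT : Cfsg.Agent.Lib.ChevBN.Table.Tbl chevB2)
    (hR : Cfsg.Agent.Lib.ChevBN.Rel.Sys chevB2 F η) {q : ℕ} (hq : Nat.card F = q) :
    Nat.gcd 2 (q - 1) * Nat.card (chevB2.group F) = q ^ 4 * (q ^ 2 - 1) * (q ^ 4 - 1) := by
  subst hq
  have h := order_formula hR hT (dH := Nat.gcd 2 (Nat.card F - 1)) check all_mem poly rfl (cardH hT hR)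
  rw [posRoots_length] at h
  rw [h]
  simp [prodSub, mul_assoc]

end Cfsg.Agent.Lib.ChevOrder.Cert.B2
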