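import Cfsg.Agent.Lib.ChevOrder.Chain
import Cfsg.Agent.Lib.ChevOrder.TorusCard
import Cfsg.Prelude.Def_ChevD4

/-! Certificates for the order of the Chevalley group of type D4: generated tables. -/

set_option autoImplicit false
set_option linter.unusedSimpArgs false
set_option maxRecDepth 100000
set_option maxHeartbeats 4000000

namespace Cfsg.Agent.Lib.ChevOrder.Cert.D4

open Cfsg.Lie Cfsg.Agent.Lib.ChevOrder.Level Cfsg.Agent.Lib.ChevOrder.Chain
open Cfsg.Agent.Lib.ChevOrder.TorusCard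

/-- Level 0: the orbit of the coordinate functional 0. -/
def lev0 : List (List ℤ × ℕ) := [
  ([Int.ofNat 1, Int.ofNat 0, Int.ofNat 0, Int.ofNat 0], 0),
  ([Int.negSucc 0, Int.ofNat 1, Int.ofNat 0, Int.ofNat 0], 1),
  ([Int.ofNat 0, Int.negSucc 0, Int.ofNat 1, Int.ofNat 1], 2),
  ([Int.ofNat 0, Int.ofNat 0, Int.negSucc 0, Int.ofNat 1], 3),
  ([Int.ofNat 0, Int.ofNat 0, Int.ofNat 1, Int.negSucc 0], 3),
  ([Int.ofNat 0, Int.ofNat 1, Int.negSucc 0, Int.negSucc 0], 4),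
  ([Int.ofNat 1, Int.negSucc 0, Int.ofNat 0, Int.ofNat 0], 5),
  ([Int.negSucc 0, Int.ofNat 0, Int.ofNat 0, Int.ofNat 0], 6)]

/-- Level 1: the orbit of the coordinate functional 2. -/
def lev1 : List (List ℤ × ℕ) := [
  ([Int.ofNat 0, Int.ofNat 0, Int.ofNat 1, Int.ofNat 0], 0),
  ([Int.ofNat 0, Int.ofNat 1, Int.negSucc 0, Int.ofNat 0], 1),
  ([Int.ofNat 1, Int.negSucc 0, Int.ofNat 0, Int.ofNat 1], 2),
  ([Int.ofNat 1, Int.ofNat 0, Int.ofNat 0, Int.negSucc 0], 3)]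

/-- Level 2: the orbit of the coordinate functional 1. -/
def lev2 : List (List ℤ × ℕ) := [
  ([Int.ofNat 0, Int.ofNat 1, Int.ofNat 0, Int.ofNat 0], 0),
  ([Int.ofNat 1, Int.negSucc 0, Int.ofNat 1, Int.ofNat 1], 1),
  ([Int.ofNat 1, Int.ofNat 0, Int.ofNat 1, Int.negSucc 0], 2)]

/-- Level 3: the orbit of the coordinate functional 3. -/
def lev3 : List (List ℤ × ℕ) := [
  ([Int.ofNat 0, Int.ofNat 0, Int.ofNat 0, Int.ofNat 1], 0),
  ([Int.ofNat 0, Int.ofNat 1, Int.ofNat 0, Int.negSucc 0], 1)]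

/-- The chain of levels. -/
def chain : List (ℕ × List (List ℤ × ℕ)) := [(0, lev0), (2, lev1), (1, lev2), (3, lev3)]

theorem check : checkChain chevD4 chain = true := by decide +kernel

theorem poly : chainPoly chain = degPoly [2, 4, 4, 6] := by decide +kernel

theorem all_mem : ∀ i < chevD4.rank, i ∈ chain.map Prod.fst := by decide +kernel

theorem posRoots_length : chevD4.posRoots.length = 12 := by decide +kernel

/-- Smith data of the Cartan matrix. -/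
def mU : Matrix (Fin 4) (Fin 4) ℤ := !![-1, 0, 0, 0; -2, -1, 0, 0; -3, -2, -1, 0; 2, 2, 1, 1]

/-- Smith data of the Cartan matrix. -/
def mU' : Matrix (Fin 4) (Fin 4) ℤ := !![-1, 0, 0, 0; 2, -1, 0, 0; -1, 2, -1, 0; -1, 0, 1, 1]

/-- Smith data of the Cartan matrix. -/
def mV : Matrix (Fin 4) (Fin 4) ℤ := !![0, 0, 0, 1; 1, 0, 0, 2; 0, 1, -1, 1; 0, 0, 1, 2]

/-- Smith data of the Cartan matrix. -/
def mV' : Matrix (Fin 4) (Fin 4) ℤ := !![-2, 1, 0, 0; -3, 0, 1, 1; -2, 0, 0, 1; 1, 0, 0, 0]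

/-- The Cartan matrix. -/
def mA : Matrix (Fin 4) (Fin 4) ℤ := cartM chevD4

/-- The elementary divisors. -/
def dd : Fin 4 → ℕ := ![1, 1, 2, 2]

theorem hU : mU' * mU = 1 := by decide +kernel

theorem hV : mV * mV' = 1 := by decide +kernel

theorem hV' : mV' * mV = 1 := by decide +kernel

theorem hS : mU * mA * mV = Matrix.diagonal fun i => (dd i : ℤ) := by decide +kernel

theorem prod_gcd (m : ℕ) : (∏ i, Nat.gcd m (dd i)) = Nat.gcd 2 (m) ^ 2 := by
  simp [dd, Fin.prod_univ_succ, Nat.gcd_comm, pow_two]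

/-- The order of the diagonal subgroup. -/
theorem cardH {F : Type*} [Field F] [Finite F] {η : ℕ → ℕ → ℤ} (hT : Cfsg.Agent.Lib.ChevBN.Table.Tbl chevD4)
    (hR : Cfsg.Agent.Lib.ChevBN.Rel.Sys chevD4 F η) :
    Nat.gcd 2 (Nat.card F - 1) ^ 2 * Nat.card (chevD4.diagonalSubgroup F) =
      (Nat.card F - 1) ^ 4 := by
  have h := card_H_smith (D := chevD4) hT hR (U := mU) (U' := mU') (V := mV) (V' := mV') dd hU hV hV' hS
  change (∏ i : Fin 4, (Nat.card F - 1).gcd (dd i)) * _ = _ at h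
  rw [prod_gcd (Nat.card F - 1)] at h
  exact h

/-- The order of the Chevalley group. -/
theorem order {F : Type*} [Field F] [Finite F] {η : ℕ → ℕ → ℤ} (hT : Cfsg.Agent.Lib.ChevBN.Table.Tbl chevD4)
    (hR : Cfsg.Agent.Lib.ChevBN.Rel.Sys chevD4 F η) {q : ℕ} (hq : Nat.card F = q) :
    Nat.gcd 2 (q - 1) ^ 2 * Nat.card (chevD4.group F) = q ^ 12 * (q ^ 2 - 1) * (q ^ 4 - 1) * (q ^ 4 - 1) * (q ^ 6 - 1) := by
  subst hq
  have h := order_formula hR hT (dH := Nat.gcd 2 (Nat.card F - 1) ^ 2) check all_mem poly rfl (cardH hT hR)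
  rw [posRoots_length] at h
  rw [h]
  simp [prodSub, mul_assoc]

end Cfsg.Agent.Lib.ChevOrder.Cert.D4
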